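import Cfsg.Prelude.Def_CaseTheorems
import Cfsg.Agent.Lib.H29.Gen
import Cfsg.Agent.Lib.H1.Cores
import Cfsg.Agent.Lib.H2.Solv

/-!
S3219, piece BB3: the abstract middle part.
-/

set_option autoImplicit false

open Subgroup

namespace H53.BB3

variable {B : Type*} [Group B] [Finite B]

theorem odd_core (B : Type*) [Group B] [Finite B] : Odd (Nat.card (Cfsg.oddCore B)) := by
  have h := H1.Cores.coprime_card_pPrimeCore (G := B) 2
  exact (Nat.coprime_two_right.1 h)

theorem eq_one_of_odd {X : Subgroup B} (hX : Odd (Nat.card X)) {x : B} (hx : x ∈ X) (h2 : x * x = 1) : x = 1 := by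
  have h1 : x ^ 2 = 1 := by rw [pow_two]; exact h2
  have h3 : x ^ Nat.card X = 1 := by
    have h8 : (⟨x, hx⟩ : X) ^ Nat.card X = 1 := pow_card_eq_one'
    exact congrArg Subtype.val h8
  have h4 := orderOf_dvd_of_pow_eq_one h1
  have h5 := orderOf_dvd_of_pow_eq_one h3
  have h6 : orderOf x ∣ 1 := by
    have h7 : Nat.Coprime 2 (Nat.card X) := Nat.coprime_two_left.2 hX
    rw [← Nat.Coprime.gcd_eq_one h7]
    exact Nat.dvd_gcd h4 h5
  exact orderOf_eq_one_iff.1 (Nat.dvd_one.1 h6)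

/-- `X` centralizes `V` -/
theorem comm {V X : Subgroup B} (hXn : X.Normal) (hX : Odd (Nat.card X)) (hVe : ∀ s ∈ V, s * s = 1)
    (hXV : X ≤ normalizer (V : Set B)) {x v : B} (hx : x ∈ X) (hv : v ∈ V) : x * v = v * x := by
  have h1 : x * v * x⁻¹ * v⁻¹ ∈ V := V.mul_mem ((mem_normalizer_iff.1 (hXV hx) v).1 hv) (V.inv_mem hv)
  have h2 : x * v * x⁻¹ * v⁻¹ ∈ X := by
    have h3 : v * x⁻¹ * v⁻¹ ∈ X := hXn.conj_mem _ (X.inv_mem hx) v
    have h4 : x * v * x⁻¹ * v⁻¹ = x * (v * x⁻¹ * v⁻¹) := by group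
    rw [h4]; exact X.mul_mem hx h3
  have h5 := eq_one_of_odd hX h2 (hVe _ h1)
  rw [mul_inv_eq_one, mul_inv_eq_iff_eq_mul] at h5
  exact h5

/-- involutions of `N(V)` lie in `V` -/
theorem mem_V {V : Subgroup B} {c : ℕ} (hc : Odd c) (hV4 : Nat.card V = 4)
    (hN : Nat.card (normalizer (V : Set B)) = 4 * c) {g : B} (hg : g ∈ normalizer (V : Set B)) (h2 : g * g = 1) :
    g ∈ V := by
  let N := normalizer (V : Set B)
  let V' : Subgroup N := V.subgroupOf N
  haveI : V'.Normal := Subgroup.normal_in_normalizer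
  have hcV : Nat.card V' = 4 := by
    rw [← hV4]
    exact Nat.card_congr (Subgroup.subgroupOfEquivOfLe (le_normalizer)).toEquiv
  have hq : Nat.card (N ⧸ V') = c := by
    have h1 := Subgroup.card_eq_card_quotient_mul_card_subgroup V'
    rw [hcV, show Nat.card N = 4 * c from hN] at h1
    omega
  have h3 : (QuotientGroup.mk' V' ⟨g, hg⟩) * (QuotientGroup.mk' V' ⟨g, hg⟩) = 1 := by
    rw [← map_mul]
    have : (⟨g, hg⟩ : N) * ⟨g, hg⟩ = 1 := Subtype.ext h2
    rw [this, map_one]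
  have h4 : QuotientGroup.mk' V' ⟨g, hg⟩ = 1 := by
    have h5 : Odd (Nat.card (⊤ : Subgroup (N ⧸ V'))) := by rw [Subgroup.card_top, hq]; exact hc
    exact eq_one_of_odd h5 (Subgroup.mem_top _) h3
  have h6 : (⟨g, hg⟩ : N) ∈ V' := (QuotientGroup.eq_one_iff _).1 h4
  exact h6

theorem X_le {V : Subgroup B} (hV4 : Nat.card V = 4) (hVe : ∀ s ∈ V, s * s = 1)
    (hC : ∀ w ∈ V, w ≠ 1 → centralizer ({w} : Set B) ≤ normalizer (V : Set B)) :
    Cfsg.oddCore B ≤ normalizer (V : Set B) := by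
  have hAc : IsMulCommutative V := by
    refine ⟨⟨fun x y => Subtype.ext ?_⟩⟩
    have h1 := hVe _ (V.mul_mem x.2 y.2)
    have h2 := hVe _ x.2
    have h3 := hVe _ y.2
    have hx : (x : B)⁻¹ = x := inv_eq_of_mul_eq_one_right h2
    have hy : (y : B)⁻¹ = y := inv_eq_of_mul_eq_one_right h3
    have h4 : ((x : B) * y)⁻¹ = x * y := inv_eq_of_mul_eq_one_right h1
    rw [mul_inv_rev, hx, hy] at h4
    exact h4.symm
  have hcyc : ¬ IsCyclic V := by
    intro h
    obtain ⟨g, hg⟩ := h.exists_generator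
    have h1 : orderOf g = 4 := by rw [← hV4]; exact orderOf_eq_card_of_forall_mem_zpowers hg
    have h2 : g ^ 2 = 1 := by rw [pow_two]; exact Subtype.ext (hVe _ g.2)
    have h3 := orderOf_dvd_of_pow_eq_one h2
    rw [h1] at h3
    omega
  refine H29.Gen.le_of_cent hAc hcyc ?_ ?_ ?_
  · rw [Subgroup.normalizer_eq_top_iff.2 (inferInstance : (Cfsg.oddCore B).Normal)]; exact le_top
  · rw [hV4]
    exact Nat.Coprime.pow_left 2 (Nat.coprime_two_left.2 (odd_core B))
  · intro a ha ha1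
    exact inf_le_right.trans (hC a ha ha1)

/-- the solvable case: `V` is normal -/
theorem top_of_solvable {V : Subgroup B} {c d : ℕ} (hc : Odd c) (hd : Odd d) (hV4 : Nat.card V = 4) (hVe : ∀ s ∈ V, s * s = 1)
    (hB : Nat.card B = 4 * d) (hN : Nat.card (normalizer (V : Set B)) = 4 * c)
    (hC : ∀ w ∈ V, w ≠ 1 → centralizer ({w} : Set B) ≤ normalizer (V : Set B)) (hs : Group.IsSolvable B) :
    normalizer (V : Set B) = ⊤ := by
  classical
  let X := Cfsg.oddCore B
  have hX : Odd (Nat.card X) := odd_core B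
  have hXn : X.Normal := inferInstanceAs (Cfsg.oddCore B).Normal
  have hXV : X ≤ normalizer (V : Set B) := X_le hV4 hVe hC
  have hcom : ∀ x ∈ X, ∀ v ∈ V, x * v = v * x := fun x hx v hv => comm hXn hX hVe hXV hx hv
  let π : B →* B ⧸ X := QuotientGroup.mk' X
  have hπ : Function.Surjective π := QuotientGroup.mk'_surjective X
  have hπ1 : ∀ b : B, π b = 1 ↔ b ∈ X := fun b => QuotientGroup.eq_one_iff b
  have hcard : Nat.card B = Nat.card (B ⧸ X) * Nat.card X := Subgroup.card_eq_card_quotient_mul_card_subgroup X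
  haveI hnt : Nontrivial (B ⧸ X) := by
    rw [← Finite.one_lt_card_iff_nontrivial]
    by_contra hcon
    have h1 : Nat.card (B ⧸ X) = 1 := by
      have := Nat.card_pos (α := B ⧸ X)
      omega
    rw [h1, one_mul, hB] at hcard
    rw [← hcard] at hX
    exact (Nat.not_odd_iff_even.2 (by exact ⟨2 * d, by ring⟩)) hX
  haveI := hs
  haveI hsQ : Group.IsSolvable (B ⧸ X) := solvable_of_surjective hπ
  obtain ⟨p, hp, M, hMn, hM1, hMp, -⟩ := H2.Solv.exists_normal_abelian_pgroup (B ⧸ X) hsQ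
  haveI := Fact.mk hp
  have hp2 : p = 2 := by
    by_contra hne
    have ho : Odd (Nat.card M) := by
      obtain ⟨n, hn⟩ := hMp.exists_card_eq
      rw [hn]
      exact (hp.odd_of_ne_two hne).pow
    have hM' : Nat.card (M.comap π) = Nat.card M * Nat.card X := by
      have h1 : (M.comap π).index = M.index := Subgroup.index_comap_of_surjective M hπ
      have h2 := (M.comap π).card_mul_index
      have h3 := M.card_mul_index
      rw [h1, hcard, ← h3] at h2
      have h4 : 0 < M.index := Nat.pos_of_ne_zero Subgroup.index_ne_zero_of_finite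
      have h5 : Nat.card (M.comap π) * M.index = (Nat.card M * Nat.card X) * M.index := by rw [h2]; ring
      exact Nat.eq_of_mul_eq_mul_right h4 h5
    have h5 : M.comap π ≤ X := H1.Cores.le_pPrimeCore (hMn.comap π)
      (Nat.coprime_two_right.2 (by rw [hM']; exact ho.mul hX))
    refine hM1 ((Subgroup.eq_bot_iff_forall _).2 fun m hm => ?_)
    obtain ⟨b, rfl⟩ := hπ m
    exact (hπ1 b).2 (h5 hm)
  subst hp2
  -- `M ≤ π V`
  have hinj : ∀ v ∈ V, π v = 1 → v = 1 := fun v hv h => eq_one_of_odd hX ((hπ1 v).1 h) (hVe v hv)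
  have hcV : Nat.card (V.map π) = 4 := by
    rw [← hV4]
    refine (Nat.card_congr (Equiv.ofBijective (fun v : V => (⟨π v, Subgroup.mem_map_of_mem π v.2⟩ : V.map π)) ⟨?_, ?_⟩)).symm
    · intro v v' h
      have h1 : π v = π v' := congrArg Subtype.val h
      have h2 : π ((v : B)⁻¹ * v') = 1 := by rw [map_mul, map_inv, h1, inv_mul_cancel]
      have h3 := hinj _ (V.mul_mem (V.inv_mem v.2) v'.2) h2
      exact Subtype.ext (inv_mul_eq_one.1 h3)
    · rintro ⟨y, hy⟩
      obtain ⟨v, hv, rfl⟩ := hy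
      exact ⟨⟨v, hv⟩, rfl⟩
  have hpV : IsPGroup 2 (V.map π) := IsPGroup.of_card (n := 2) (by rw [hcV]; norm_num)
  have hsup : IsPGroup 2 (M ⊔ V.map π : Subgroup (B ⧸ X)) := hMp.to_sup_of_normal_left hpV
  have hMV : M ≤ V.map π := by
    obtain ⟨n, hn⟩ := hsup.exists_card_eq
    have h1 : Nat.card (M ⊔ V.map π : Subgroup (B ⧸ X)) ∣ Nat.card (B ⧸ X) := Subgroup.card_subgroup_dvd_card _
    have h2 : 2 ^ n ∣ 4 * d := by
      rw [← hn, ← hB, hcard]
      exact h1.mul_right _
    have h3 : n ≤ 2 := by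
      by_contra hcon
      have h4 : 2 ^ 3 ∣ 4 * d := (pow_dvd_pow 2 (by omega)).trans h2
      obtain ⟨e, he⟩ := hd
      omega
    have h4 : Nat.card (M ⊔ V.map π : Subgroup (B ⧸ X)) ≤ Nat.card (V.map π) := by
      rw [hn, hcV]
      calc 2 ^ n ≤ 2 ^ 2 := Nat.pow_le_pow_right (by norm_num) h3
        _ = 4 := by norm_num
    have h5 : V.map π = M ⊔ V.map π := Subgroup.eq_of_le_of_card_ge le_sup_right h4
    rw [h5]
    exact le_sup_left
  obtain ⟨m, hm, hm1⟩ : ∃ m ∈ M, m ≠ 1 := by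
    by_contra hcon
    push Not at hcon
    exact hM1 ((Subgroup.eq_bot_iff_forall _).2 hcon)
  obtain ⟨w, hw, hwm⟩ := hMV hm
  have hw1 : w ≠ 1 := by
    rintro rfl
    exact hm1 (by rw [← hwm, map_one])
  have hconj : ∀ b : B, b * w * b⁻¹ ∈ V := by
    intro b
    have h1 : π (b * w * b⁻¹) ∈ M := by
      rw [map_mul, map_mul, map_inv, hwm]
      exact hMn.conj_mem m hm _
    obtain ⟨v', hv', hvm⟩ := hMV h1
    have h2 : v'⁻¹ * (b * w * b⁻¹) ∈ X := (hπ1 _).1 (by rw [map_mul, map_inv, hvm, inv_mul_cancel])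
    have h3 : (b * w * b⁻¹) * (b * w * b⁻¹) = 1 := by
      have h4 := hVe w hw
      calc (b * w * b⁻¹) * (b * w * b⁻¹) = b * (w * w) * b⁻¹ := by group
        _ = 1 := by rw [h4]; group
    set x := v'⁻¹ * (b * w * b⁻¹) with hxdef
    have h5 : b * w * b⁻¹ = v' * x := by rw [hxdef]; group
    have h6 : x * x = 1 := by
      have h7 := hcom x h2 v' hv'
      have h8 := hVe v' hv'
      have h9 : (v' * x) * (v' * x) = 1 := by rw [← h5]; exact h3
      calc x * x = (v' * v') * (x * x) := by rw [h8, one_mul]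
        _ = v' * (v' * x) * x := by group
        _ = v' * (x * v') * x := by rw [h7]
        _ = (v' * x) * (v' * x) := by group
        _ = 1 := h9
    have h7 := eq_one_of_odd hX h2 h6
    rw [h5, h7, mul_one]
    exact hv'
  have hall : ∀ b : B, ∀ v ∈ V, b * v * b⁻¹ ∈ V := by
    intro b v hv
    have h1 : b * v * b⁻¹ ∈ centralizer ({b * w * b⁻¹} : Set B) := by
      rw [Subgroup.mem_centralizer_singleton_iff]
      have h2 : v * w = w * v := by
        have h3 := hVe _ (V.mul_mem hv hw)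
        have hx : v⁻¹ = v := inv_eq_of_mul_eq_one_right (hVe v hv)
        have hy : w⁻¹ = w := inv_eq_of_mul_eq_one_right (hVe w hw)
        have h4 : (v * w)⁻¹ = v * w := inv_eq_of_mul_eq_one_right h3
        rw [mul_inv_rev, hx, hy] at h4
        exact h4.symm
      calc b * v * b⁻¹ * (b * w * b⁻¹) = b * (v * w) * b⁻¹ := by group
        _ = b * (w * v) * b⁻¹ := by rw [h2]
        _ = b * w * b⁻¹ * (b * v * b⁻¹) := by group
    have h2 : b * w * b⁻¹ ≠ 1 := fun h => hw1 (by simpa using h)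
    refine mem_V hc hV4 hN (hC _ (hconj b) h2 h1) ?_
    calc (b * v * b⁻¹) * (b * v * b⁻¹) = b * (v * v) * b⁻¹ := by group
      _ = 1 := by rw [hVe v hv]; group
  rw [eq_top_iff]
  intro b _
  rw [mem_normalizer_iff]
  intro h
  refine ⟨fun hh => hall b h hh, fun hh => ?_⟩
  have h1 := hall b⁻¹ _ hh
  have h2 : b⁻¹ * (b * h * b⁻¹) * b⁻¹⁻¹ = h := by group
  rwa [h2] at h1

theorem f_four (V : Subgroup B) {f k : ℕ} (hk : f = 2 ^ k) (hf : 2 ≤ f)
    (hV4 : Nat.card V = 4) (hVe : ∀ s ∈ V, s * s = 1)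
    (hB : Nat.card B = 12 * (f * f - 1)) (hN : Nat.card (normalizer (V : Set B)) = 12 * (f - 1))
    (hC : ∀ w ∈ V, w ≠ 1 → centralizer ({w} : Set B) ≤ normalizer (V : Set B))
    (hP : ¬ Group.IsSolvable B → Nat.card (B ⧸ Cfsg.oddCore B) = 60) : f = 4 := by
  classical
  obtain ⟨g, rfl⟩ : ∃ g, f = g + 1 := ⟨f - 1, by omega⟩
  have hg : (g + 1) * (g + 1) - 1 = g * (g + 2) := by
    have : (g + 1) * (g + 1) = g * (g + 2) + 1 := by ring
    omega
  have hg1 : g + 1 - 1 = g := by omega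
  rw [hg] at hB
  rw [hg1] at hN
  have hgo : Odd g := by
    have hk0 : k ≠ 0 := by rintro rfl; norm_num at hk; omega
    have h1 : Even (g + 1) := by rw [hk]; exact (Nat.even_pow.2 ⟨even_two, hk0⟩)
    rcases Nat.even_or_odd g with h | h
    · exact absurd h1 (by simpa using h.add_one)
    · exact h
  have hidx : (normalizer (V : Set B)).index = g + 2 := by
    have h1 := (normalizer (V : Set B)).card_mul_index
    rw [hN, hB] at h1
    have h2 : (12 * g) * (normalizer (V : Set B)).index = (12 * g) * (g + 2) := by rw [h1]; ring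
    exact Nat.eq_of_mul_eq_mul_left (by omega) h2
  by_cases hs : Group.IsSolvable B
  · exfalso
    have htop := top_of_solvable (V := V) (c := 3 * g) (d := 3 * (g * (g + 2))) ((by decide : Odd 3).mul hgo)
      ((by decide : Odd 3).mul (hgo.mul (by obtain ⟨e, he⟩ := hgo; exact ⟨e + 1, by omega⟩))) hV4 hVe
      (by rw [hB]; ring) (by rw [hN]; ring) hC hs
    rw [htop, Subgroup.index_top] at hidx
    omega
  · have h60 := hP hs
    have hcard : Nat.card B = Nat.card (B ⧸ Cfsg.oddCore B) * Nat.card (Cfsg.oddCore B) :=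
      Subgroup.card_eq_card_quotient_mul_card_subgroup _
    rw [h60] at hcard
    have hX : Odd (Nat.card (Cfsg.oddCore B)) := odd_core B
    have hXV := X_le hV4 hVe hC
    have h1 : Nat.card (Cfsg.oddCore B) ∣ Nat.card (normalizer (V : Set B)) := Subgroup.card_dvd_of_le hXV
    have h2 : 4 ∣ Nat.card (normalizer (V : Set B)) := by
      rw [← hV4]; exact Subgroup.card_dvd_of_le le_normalizer
    have h3 : 4 * Nat.card (Cfsg.oddCore B) ∣ Nat.card (normalizer (V : Set B)) :=
      Nat.Coprime.mul_dvd_of_dvd_of_dvd (Nat.Coprime.pow_left 2 (Nat.coprime_two_left.2 hX)) h2 h1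
    obtain ⟨c, hc⟩ := h3
    have h4 := (normalizer (V : Set B)).card_mul_index
    rw [hidx, hc, hcard] at h4
    have hXpos : 0 < Nat.card (Cfsg.oddCore B) := Nat.card_pos
    have h5 : c * (g + 2) = 15 := by
      have h6 : (4 * Nat.card (Cfsg.oddCore B)) * (c * (g + 2)) = (4 * Nat.card (Cfsg.oddCore B)) * 15 := by
        calc (4 * Nat.card (Cfsg.oddCore B)) * (c * (g + 2)) = 4 * Nat.card (Cfsg.oddCore B) * c * (g + 2) := by ring
          _ = 60 * Nat.card (Cfsg.oddCore B) := h4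
          _ = (4 * Nat.card (Cfsg.oddCore B)) * 15 := by ring
      exact Nat.eq_of_mul_eq_mul_left (by omega) h6
    have h6 : g + 2 ∣ 15 := ⟨c, by rw [← h5]; ring⟩
    have h7 : g + 2 ≤ 15 := Nat.le_of_dvd (by norm_num) h6
    have h8 : g ≤ 13 := by omega
    rw [hB] at hcard
    interval_cases g <;> first | rfl | (exfalso; omega) | (exfalso; revert h6; decide) | skip
    all_goals
      exfalso
      have hk4 : k < 4 := by
        by_contra hcon
        have : 2 ^ 4 ≤ 2 ^ k := Nat.pow_le_pow_right (by norm_num) (by omega)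
        omega
      interval_cases k <;> omega

end H53.BB3
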