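import Cfsg.Agent.Lib.H16.NA1
import Cfsg.Agent.Lib.H9.HSOut2

set_option autoImplicit false
set_option maxHeartbeats 400000

/-! M22 and HS have nonabelian Sylow 2-subgroups. -/

namespace H53.NA
open Subgroup H16.NA Cfsg H8.GolayCode H40.PermCode H40.MathieuBase

def sX : ℕ := 0xb91ec59530ab8349aa2838e56309a0
def sY : ℕ := 0xbb9f319690a9149604d66ae48888e0
def sYi : ℕ := 0xba1f1a1470ad8eb335840a64e98940

noncomputable def px : Equiv.Perm GolayPt := ofCode E24 5 sX sX (by decide +kernel)
noncomputable def py : Equiv.Perm GolayPt := ofCode E24 5 sY sYi (by decide +kernel)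
theorem rx : Rep E24 5 px sX := rep_ofCode _
theorem ry : Rep E24 5 py sY := rep_ofCode _

noncomputable def gx : Spor.M22 := ⟨px, H40.OutM22.mem22_of_rep rx (by decide +kernel) (by decide +kernel) (by decide +kernel)⟩
noncomputable def gy : Spor.M22 := ⟨py, H40.OutM22.mem22_of_rep ry (by decide +kernel) (by decide +kernel) (by decide +kernel)⟩

theorem m22_aux (h : AbS Spor.M22) : False := by
  have hx2 : px * px = 1 := (Rep.isOne_iff (Rep.mul rx rx)).1 (by decide +kernel)
  have hy4 : py * py * (py * py) = 1 := (Rep.isOne_iff (Rep.mul (Rep.mul ry ry) (Rep.mul ry ry))).1 (by decide +kernel)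
  have hxy : px * py * px * py = 1 := (Rep.isOne_iff (Rep.mul (Rep.mul (Rep.mul rx ry) rx) ry)).1 (by decide +kernel)
  have hy2 : py * py ≠ 1 := by
    intro h1
    have h2 := (Rep.isOne_iff (Rep.mul ry ry)).2 h1
    revert h2
    decide +kernel
  have h1 : gy ^ 2 = 1 := by
    refine sq_of_inv h (x := gx) (y := gy) (k := 1) (l := 2) ?_ ?_ ?_
    · apply Subtype.ext
      show px ^ (2 ^ 1) = 1
      rw [pow_one, pow_two]; exact hx2
    · apply Subtype.ext
      show py ^ (2 ^ 2) = 1
      rw [← hy4]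
      simp only [pow_succ, pow_zero, one_mul, mul_assoc, show (2:ℕ)^2 = 4 from rfl]
    · apply Subtype.ext
      show px * py * px⁻¹ = py⁻¹
      have hxi : px⁻¹ = px := inv_eq_of_mul_eq_one_left hx2
      rw [hxi]
      exact eq_inv_of_mul_eq_one_left hxy
  apply hy2
  have h2 := congrArg Subtype.val h1
  have h3 : py ^ 2 = 1 := h2
  rwa [pow_two] at h3

theorem m22 {K : Type*} [Group K] [Finite K] (hK : Cfsg.Spor.IsoM22 K) (h : H16.NA.AbS K) : False := by
  obtain ⟨φ⟩ := hK
  exact m22_aux (h.of_equiv φ.symm)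

theorem hs {K : Type*} [Group K] [Finite K] (hK : Cfsg.Spor.IsoHS K) (h : H16.NA.AbS K) : False := by
  obtain ⟨φ⟩ := hK
  have h1 : AbS Spor.M22 := by
    refine h.of_injective ((φ.symm.toMonoidHom.comp H9.HSOut.hsEquiv.toMonoidHom).comp (H9.OutPair.iota H9.HSOut.hc)) ?_
    intro a b hab
    apply H9.OutPair.iota_inj H9.HSOut.hc
    apply H9.HSOut.hsEquiv.injective
    exact φ.symm.injective hab
  exact m22_aux h1

end H53.NA
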